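import Cfsg.Agent.H59.TI

/-! Timmesfeld's fundamental lemma on elementary abelian TI-subgroups: element-wise part. -/

set_option autoImplicit false

namespace Cfsg.Agent.H59

open Subgroup H69
open scoped commutatorElement

variable {G : Type*} [Group G]

/-- `P` is a special group with centre the elementary abelian TI-subgroup `V`. -/
structure TC (V P : Subgroup G) : Prop where
  ti : TIin ⊤ V
  VP : V ≤ P
  inv : ∀ v ∈ V, v * v = 1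
  cen : ∀ x ∈ P, ∀ v ∈ V, x * v = v * x
  center : ∀ x ∈ P, (∀ y ∈ P, y * x = x * y) → x ∈ V
  comm : ∀ x ∈ P, ∀ y ∈ P, ⁅x, y⁆ ∈ V
  sq : ∀ x ∈ P, x * x ∈ V
  norm : normalizer (V : Set G) ≤ normalizer (P : Set G)
  inner : ∀ g : G, (∀ v ∈ V, g * v = v * g) → (∀ x ∈ P, ⁅g, x⁆ ∈ V) → g ∈ P

theorem conj_commutatorElement' (g a b : G) :
    ⁅g * a * g⁻¹, g * b * g⁻¹⁆ = g * ⁅a, b⁆ * g⁻¹ := by
  simp only [commutatorElement_def]; group

theorem comm_iff_el {a b : G} : ⁅a, b⁆ = 1 ↔ a * b = b * a := commutatorElement_eq_one_iff_mul_comm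

namespace TC

variable {V P A B : Subgroup G}

theorem cj (h : TC V P) (g : G) : TC (cj g V) (cj g P) := by
  have hs : ∀ a : G, ∃ a', a = g * a' * g⁻¹ := fun a => ⟨g⁻¹ * a * g, by group⟩
  have hinj : ∀ {a b : G}, g * a * g⁻¹ = g * b * g⁻¹ ↔ a = b := by simp
  refine ⟨h.ti.cj g, cj_mono h.VP, ?_, ?_, ?_, ?_, ?_, ?_, ?_⟩
  · intro v hv
    obtain ⟨v, rfl⟩ := hs v
    rw [conj_mul, h.inv v (conj_mem_cj.1 hv)]; simp
  · intro x hx v hv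
    obtain ⟨v, rfl⟩ := hs v
    obtain ⟨x, rfl⟩ := hs x
    rw [conj_mul, conj_mul, h.cen x (conj_mem_cj.1 hx) v (conj_mem_cj.1 hv)]
  · intro x hx h1
    obtain ⟨x, rfl⟩ := hs x
    refine conj_mem_cj.2 (h.center x (conj_mem_cj.1 hx) fun y hy => ?_)
    have := h1 _ (conj_mem_cj.2 hy)
    rwa [conj_mul, conj_mul, hinj] at this
  · intro x hx y hy
    obtain ⟨y, rfl⟩ := hs y
    obtain ⟨x, rfl⟩ := hs x
    rw [conj_commutatorElement', conj_mem_cj]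
    exact h.comm x (conj_mem_cj.1 hx) y (conj_mem_cj.1 hy)
  · intro x hx
    obtain ⟨x, rfl⟩ := hs x
    rw [conj_mul, conj_mem_cj]
    exact h.sq x (conj_mem_cj.1 hx)
  · rw [← cj_normalizer, ← cj_normalizer]
    exact cj_mono h.norm
  · intro k h1 h2
    obtain ⟨k, rfl⟩ := hs k
    refine conj_mem_cj.2 (h.inner k (fun v hv => ?_) fun x hx => ?_)
    · have := h1 _ (conj_mem_cj.2 hv)
      rwa [conj_mul, conj_mul, hinj] at this
    · have := h2 _ (conj_mem_cj.2 hx)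
      rwa [conj_commutatorElement', conj_mem_cj] at this

theorem conj_mem (h : TC V P) {g x : G} (hg : ∀ v ∈ V, g * v = v * g) (hx : x ∈ P) :
    g * x * g⁻¹ ∈ P :=
  conj_mem_of_mem_normalizer (h.norm (centralizer_le_normalizer _ fun v hv => (hg v hv).symm)) hx

theorem comm_mem (h : TC V P) {g x : G} (hg : ∀ v ∈ V, g * v = v * g) (hx : x ∈ P) :
    ⁅g, x⁆ ∈ P := P.mul_mem (h.conj_mem hg hx) (P.inv_mem hx)

end TC

/-- `B` is a conjugate of `V` inside `P`, different from `V`. -/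
structure TD (V P B : Subgroup G) : Prop where
  tc : TC V P
  ex : ∃ k, B = cj k V
  le : B ≤ P
  ne : B ≠ V

namespace TD

variable {V P A B : Subgroup G}

theorem cj (h : TD V P B) (g : G) : TD (cj g V) (cj g P) (cj g B) := by
  obtain ⟨k, rfl⟩ := h.ex
  exact ⟨h.tc.cj g, ⟨g * k * g⁻¹, by rw [← cj_mul, ← cj_mul]; simp⟩, cj_mono h.le,
    fun e => h.ne (cj_inj.1 e)⟩

theorem ti (h : TD V P B) : TIin ⊤ B := by
  obtain ⟨k, rfl⟩ := h.ex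
  exact h.tc.ti.cj k

theorem inv (h : TD V P B) : ∀ b ∈ B, b * b = 1 := by
  obtain ⟨k, rfl⟩ := h.ex
  exact (h.tc.cj k).inv

theorem comm (h : TD V P B) : ∀ a ∈ B, ∀ b ∈ B, a * b = b * a := by
  obtain ⟨k, rfl⟩ := h.ex
  exact fun a ha => (h.tc.cj k).cen a ((h.tc.cj k).VP ha)

theorem card (h : TD V P B) : Nat.card B = Nat.card V := by
  obtain ⟨k, rfl⟩ := h.ex
  exact card_cj k V

theorem eq_one (h : TD V P B) {x : G} (h1 : x ∈ V) (h2 : x ∈ B) : x = 1 := by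
  obtain ⟨k, rfl⟩ := h.ex
  have := (h.tc.ti.or (mem_top k)).resolve_left h.ne
  exact mem_bot.1 (this ▸ mem_inf.2 ⟨h2, h1⟩)

theorem exists_ne_one (h : TD V P B) : ∃ b ∈ B, b ≠ 1 := by
  by_contra hc
  push Not at hc
  obtain ⟨k, rfl⟩ := h.ex
  have : H69.cj k V = ⊥ := eq_bot_iff.2 fun x hx => mem_bot.2 (hc x hx)
  exact h.ne (by rw [this, cj_eq_bot.1 this])

theorem cent_of_comm (h : TD V P B) {x b : G} (hx : x ∈ P) (hb : b ∈ B) (h1 : b ≠ 1)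
    (hc : x * b = b * x) : ∀ c ∈ B, x * c = c * x := fun c hc' =>
  comm_iff_el.1 (h.eq_one (h.tc.comm x hx c (h.le hc')) (B.mul_mem (conj_mem_of_mem_normalizer
    (h.ti.of_comm (mem_top x) hb h1 hc) hc') (B.inv_mem hc')))

theorem onto [Finite V] (h : TD V P B) {x : G} (hx : x ∈ P) (hn : ¬ ∀ c ∈ B, x * c = c * x)
    {v : G} (hv : v ∈ V) : ∃ b ∈ B, ⁅x, b⁆ = v := by
  let f : B → V := fun b => ⟨⁅x, b⁆, h.tc.comm x hx b (h.le b.2)⟩
  have hf : Function.Injective f := fun b c e => by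
    have e' : ⁅x, (b : G)⁆ = ⁅x, (c : G)⁆ := congrArg Subtype.val e
    by_contra hne
    refine hn (h.cent_of_comm hx (B.mul_mem (B.inv_mem c.2) b.2) (fun e2 => hne ?_) ?_)
    · exact (Subtype.ext (inv_mul_eq_one.1 e2)).symm
    · simp only [commutatorElement_def] at e'
      calc x * ((c : G)⁻¹ * b) = x * (c : G)⁻¹ * x⁻¹ * (x * b * x⁻¹ * (b : G)⁻¹) * b * x := by group
        _ = (c : G)⁻¹ * b * x := by rw [e']; group
  haveI : Finite B := Finite.of_injective f hf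
  obtain ⟨b, hb⟩ := (hf.bijective_of_nat_card_le h.card.ge).2 ⟨v, hv⟩
  exact ⟨b, b.2, congrArg Subtype.val hb⟩

end TD

/-- Two non-commuting conjugates of `V` in `P`. -/
structure TP (V P A B : Subgroup G) : Prop where
  l : TD V P A
  r : TD V P B
  nc : ∃ a ∈ A, ∃ b ∈ B, a * b ≠ b * a

namespace TP

variable {V P A B : Subgroup G}

theorem symm (h : TP V P A B) : TP V P B A :=
  ⟨h.r, h.l, let ⟨a, ha, b, hb, e⟩ := h.nc; ⟨b, hb, a, ha, e.symm⟩⟩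

theorem cj (h : TP V P A B) (g : G) : TP (cj g V) (cj g P) (cj g A) (cj g B) := by
  obtain ⟨a, ha, b, hb, e⟩ := h.nc
  refine ⟨h.l.cj g, h.r.cj g, _, conj_mem_cj.2 ha, _, conj_mem_cj.2 hb, ?_⟩
  rw [conj_mul, conj_mul]
  simpa using e

theorem ne (h : TP V P A B) {a b : G} (ha : a ∈ A) (ha1 : a ≠ 1) (hb : b ∈ B) (hb1 : b ≠ 1) :
    a * b ≠ b * a := fun e => by
  obtain ⟨a0, ha0, b0, hb0, e0⟩ := h.nc
  have h1 := h.r.cent_of_comm (h.l.le ha) hb hb1 e b0 hb0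
  exact e0 (h.l.cent_of_comm (h.r.le hb0) ha ha1 h1.symm a0 ha0).symm

variable [Finite V]

theorem onto (h : TP V P A B) {b : G} (hb : b ∈ B) (hb1 : b ≠ 1) {v : G} (hv : v ∈ V) :
    ∃ a ∈ A, ⁅b, a⁆ = v := by
  obtain ⟨a, ha, ha1⟩ := h.l.exists_ne_one
  exact h.l.onto (h.r.le hb) (fun e => h.ne ha ha1 hb hb1 (e a ha).symm) hv

theorem exists_conj (h : TP V P A B) {b : G} (hb : b ∈ B) (hb1 : b ≠ 1) {v : G} (hv : v ∈ V) :
    ∃ a ∈ A, a * b * a⁻¹ = v * b := by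
  obtain ⟨a, ha, e⟩ := h.onto hb hb1 (V.inv_mem hv)
  refine ⟨a, ha, ?_⟩
  rw [← inv_inv v, ← e, commutatorElement_def]; group

theorem dec (h : TP V P A B) {x : G} (hx : x ∈ P) :
    ∃ a ∈ A, ∀ c ∈ B, x * a⁻¹ * c = c * (x * a⁻¹) := by
  obtain ⟨b, hb, hb1⟩ := h.r.exists_ne_one
  have hbP := h.r.le hb
  obtain ⟨a, ha, e⟩ := h.onto hb hb1 (h.l.tc.comm b hbP x hx)
  have haP := h.l.le ha
  refine ⟨a, ha, h.r.cent_of_comm (P.mul_mem hx (P.inv_mem haP)) hb hb1 ?_⟩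
  have h1 := h.l.tc.cen _ (P.mul_mem hx (P.inv_mem haP)) _ (h.l.tc.comm b hbP a haP)
  calc x * a⁻¹ * b = (x * a⁻¹ * ⁅b, a⁆) * ⁅b, a⁆⁻¹ * b := by group
    _ = ⁅b, x⁆ * (x * a⁻¹) * ⁅b, a⁆⁻¹ * b := by rw [h1, e]
    _ = b * (x * a⁻¹) := by simp only [commutatorElement_def]; group

theorem mem_of_cent (h : TP V P A B) {d : G} (hd : d ∈ P)
    (hc : ∀ x ∈ P, (∀ c ∈ B, x * c = c * x) → x * d = d * x) : ∃ v ∈ V, ∃ b ∈ B, d = v * b := by
  obtain ⟨b, hb, e⟩ := h.symm.dec hd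
  refine ⟨d * b⁻¹, h.l.tc.center _ (P.mul_mem hd (P.inv_mem (h.r.le hb))) fun y hy => ?_, b, hb,
    by group⟩
  obtain ⟨a, ha, e'⟩ := h.dec hy
  have h1 := hc _ (P.mul_mem hy (P.inv_mem (h.l.le ha))) e'
  calc y * (d * b⁻¹) = y * a⁻¹ * (a * (d * b⁻¹)) := by group
    _ = (y * a⁻¹ * d) * b⁻¹ * a := by rw [← e a ha]; group
    _ = d * (y * a⁻¹ * b⁻¹) * a := by rw [h1]; group
    _ = d * b⁻¹ * y := by rw [e' _ (B.inv_mem hb)]; group

omit [Finite V] in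
theorem sq_ne (h : TP V P A B) {v a b : G} (hv : v ∈ V) (ha : a ∈ A) (ha1 : a ≠ 1) (hb : b ∈ B)
    (hb1 : b ≠ 1) : v * b * a * (v * b * a) ≠ 1 := fun e => by
  have h1 := h.l.tc.cen _ (P.mul_mem (h.r.le hb) (h.l.le ha)) v hv
  have h2 : b * a * (b * a) = 1 := by
    calc b * a * (b * a) = (v * v) * (b * a) * (b * a) := by rw [h.l.tc.inv v hv, one_mul]
      _ = v * (v * (b * a)) * (b * a) := by group
      _ = 1 := by rw [← h1, ← e]; group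
  have h3 := inv_eq_of_mul_eq_one_right h2
  rw [mul_inv_rev, inv_eq_of_mul_eq_one_right (h.l.inv a ha),
    inv_eq_of_mul_eq_one_right (h.r.inv b hb)] at h3
  exact h.ne ha ha1 hb hb1 h3

section Small

variable {τ : G}

omit [Finite V] in
theorem small_inv (h : TC V P) (hτ : τ * τ = 1) (hV : ∀ v ∈ V, τ * v = v * τ)
    (hs : ∀ y ∈ P, ⁅τ, y⁆ ∈ V → τ * y = y * τ) {y : G} (hy : y ∈ P) :
    τ * ⁅τ, y⁆ = ⁅τ, y⁆ * τ ∧ ⁅τ, y⁆ * ⁅τ, y⁆ = 1 := by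
  have hi := inv_eq_of_mul_eq_one_right hτ
  have e : τ * ⁅τ, y⁆ * τ⁻¹ = ⁅τ, y⁆⁻¹ := by
    calc τ * ⁅τ, y⁆ * τ⁻¹ = (τ * τ) * y * τ⁻¹ * y⁻¹ * τ⁻¹ := by rw [commutatorElement_def]; group
      _ = y * τ * y⁻¹ * τ⁻¹ := by rw [hτ, one_mul]; nth_rw 1 [hi]
      _ = _ := by rw [commutatorElement_def]; group
  have hc := h.comm_mem hV hy
  have h1 := hs _ hc (by
    rw [commutatorElement_def τ, e, ← mul_inv_rev]
    exact V.inv_mem (h.sq _ hc))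
  refine ⟨h1, ?_⟩
  rw [h1, mul_inv_cancel_right] at e
  nth_rw 2 [e]
  exact mul_inv_cancel _

omit [Finite V] in
theorem small_side (h : TP V P A B)
    (hd : ∀ y ∈ P, y * y = 1 → (∃ v ∈ V, ∃ a ∈ A, y = v * a) ∨ ∃ v ∈ V, ∃ b ∈ B, y = v * b)
    (hτ : τ * τ = 1) (hV : ∀ v ∈ V, τ * v = v * τ)
    (hs : ∀ y ∈ P, ⁅τ, y⁆ ∈ V → τ * y = y * τ) {a : G} (ha : a ∈ A) :
    ∃ v ∈ V, ∃ a' ∈ A, ⁅τ, a⁆ = v * a' := by
  have hai := inv_eq_of_mul_eq_one_right (h.l.inv a ha)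
  by_cases ha1 : a = 1
  · exact ⟨1, V.one_mem, 1, A.one_mem, by simp [ha1]⟩
  rcases hd _ (h.l.tc.conj_mem hV (h.l.le ha)) (by rw [conj_mul, h.l.inv a ha]; simp) with
    ⟨v, hv, a', ha', e⟩ | ⟨v, hv, b, hb, e⟩
  · exact ⟨v, hv, a' * a⁻¹, A.mul_mem ha' (A.inv_mem ha), by rw [commutatorElement_def, e, mul_assoc]⟩
  · have h1 := (small_inv h.l.tc hτ hV hs (h.l.le ha)).2
    rw [commutatorElement_def, e, hai] at h1
    by_cases hb1 : b = 1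
    · exact ⟨v, hv, a⁻¹, A.inv_mem ha, by rw [commutatorElement_def, e, hb1, mul_one]⟩
    · exact absurd h1 (h.sq_ne hv ha ha1 hb hb1)

omit [Finite V] in
theorem small_fix (h : TP V P A B)
    (hd : ∀ y ∈ P, y * y = 1 → (∃ v ∈ V, ∃ a ∈ A, y = v * a) ∨ ∃ v ∈ V, ∃ b ∈ B, y = v * b)
    (hτ : τ * τ = 1) (hV : ∀ v ∈ V, τ * v = v * τ)
    (hs : ∀ y ∈ P, ⁅τ, y⁆ ∈ V → τ * y = y * τ) {a : G} (ha : a ∈ A) : τ * a = a * τ := by
  obtain ⟨v, hv, a', ha', e⟩ := h.small_side hd hτ hV hs ha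
  obtain ⟨b1, hb1, hb11, w, hw, hwb⟩ : ∃ b ∈ B, b ≠ 1 ∧ ∃ w ∈ V, τ * (w * b) = w * b * τ := by
    obtain ⟨b, hb, hb1⟩ := h.r.exists_ne_one
    obtain ⟨w, hw, b', hb', e'⟩ := h.symm.small_side (fun y hy e => (hd y hy e).symm) hτ hV hs hb
    by_cases h1 : b' = 1
    · refine ⟨b, hb, hb1, 1, V.one_mem, ?_⟩
      rw [one_mul]
      exact hs b (h.r.le hb) (by rw [e', h1, mul_one]; exact hw)
    · exact ⟨b', hb', h1, w, hw, e' ▸ (small_inv h.l.tc hτ hV hs (h.r.le hb)).1⟩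
  refine hs a (h.l.le ha) ?_
  by_cases h1 : a' = 1
  · rw [e, h1, mul_one]; exact hv
  exfalso
  refine h.ne ha' h1 hb1 hb11 ?_
  have hb : τ * b1 * τ⁻¹ = b1 := by
    have : τ * w * b1 = w * (b1 * τ) := by rw [mul_assoc, hwb, mul_assoc]
    rw [hV w hw, mul_assoc] at this
    rw [mul_left_cancel this, mul_inv_cancel_right]
  have hc := h.l.tc.comm a (h.l.le ha) b1 (h.r.le hb1)
  have e1 : ⁅τ * a * τ⁻¹, b1⁆ = ⁅a, b1⁆ := by
    conv_lhs => rw [← hb]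
    rw [conj_commutatorElement', hV _ hc, mul_inv_cancel_right]
  have e2 : τ * a * τ⁻¹ = v * a' * a := by rw [← e, commutatorElement_def]; group
  have e3 := h.l.tc.cen _ (P.mul_mem (h.l.tc.VP hv) (h.l.le ha')) _ hc
  have e4 : v * a' * b1 = b1 * (v * a') := by
    rw [e2] at e1
    calc v * a' * b1 = ⁅a, b1⁆⁻¹ * (⁅a, b1⁆ * (v * a')) * b1 := by group
      _ = ⁅a, b1⁆⁻¹ * ⁅v * a' * a, b1⁆ * (b1 * (v * a')) := by
        rw [← e3, commutatorElement_def (v * a' * a), commutatorElement_def a]; group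
      _ = b1 * (v * a') := by rw [e1]; group
  rw [← mul_assoc, h.l.tc.cen b1 (h.r.le hb1) v hv, mul_assoc, mul_assoc] at e4
  exact mul_left_cancel e4

theorem small (h : TP V P A B)
    (hR : ∀ x ∈ P, (∀ c ∈ B, x * c = c * x) → ∃ v ∈ V, ∃ b ∈ B, x = v * b)
    (hτ : τ * τ = 1) (hV : ∀ v ∈ V, τ * v = v * τ)
    (hs : ∀ y ∈ P, ⁅τ, y⁆ ∈ V → τ * y = y * τ) : τ ∈ P := by
  have hdec : ∀ y ∈ P, ∃ v ∈ V, ∃ b ∈ B, ∃ a ∈ A, y = v * b * a := fun y hy => by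
    obtain ⟨a, ha, e⟩ := h.dec hy
    obtain ⟨v, hv, b, hb, e'⟩ := hR _ (P.mul_mem hy (P.inv_mem (h.l.le ha))) e
    exact ⟨v, hv, b, hb, a, ha, by rw [← e']; group⟩
  have hd : ∀ y ∈ P, y * y = 1 → (∃ v ∈ V, ∃ a ∈ A, y = v * a) ∨ ∃ v ∈ V, ∃ b ∈ B, y = v * b := by
    intro y hy e
    obtain ⟨v, hv, b, hb, a, ha, rfl⟩ := hdec y hy
    by_cases hb1 : b = 1
    · exact Or.inl ⟨v, hv, a, ha, by rw [hb1, mul_one]⟩
    by_cases ha1 : a = 1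
    · exact Or.inr ⟨v, hv, b, hb, by rw [ha1, mul_one]⟩
    exact absurd e (h.sq_ne hv ha ha1 hb hb1)
  refine h.l.tc.inner τ hV fun y hy => ?_
  obtain ⟨v, hv, b, hb, a, ha, rfl⟩ := hdec y hy
  have h1 : Commute τ a := h.small_fix hd hτ hV hs ha
  have h2 : Commute τ b := h.symm.small_fix (fun y hy e => (hd y hy e).symm) hτ hV hs hb
  have h3 : Commute τ v := hV v hv
  rw [comm_iff_el.2 ((h3.mul_right h2).mul_right h1).eq]
  exact V.one_mem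

end Small

end TP

end Cfsg.Agent.H59
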