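import Cfsg.Agent.H59.TIFund

/-! Timmesfeld's fundamental lemma: symmetry of the relation `V^g ≤ Q`. -/

set_option autoImplicit false

namespace Cfsg.Agent.H59

open Subgroup H69
open scoped commutatorElement

variable {G : Type*} [Group G] {V P A : Subgroup G} {g : G}

namespace TP

variable [Finite V]

theorem caseA (h : TP V P A (H69.cj g V)) {y v : G} (hy : y ∈ H69.cj g P) (hv : v ∈ V)
    (h1 : ⁅y, v⁆ ∈ H69.cj g V) (h2 : ⁅y, v⁆ ≠ 1) :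
    V ≤ H69.cj g P ∧ ∃ a ∈ P, H69.cj (a⁻¹ * y) V = H69.cj g V := by
  have hT := h.l.tc
  have hT' := hT.cj g
  obtain ⟨a, ha, e⟩ := h.exists_conj h1 h2 hv
  have haP := h.l.le ha
  have e1 : y * v * y⁻¹ = v * ⁅y, v⁆ := by
    rw [← hT.cen _ (h.r.le h1) v hv, commutatorElement_def]; group
  have e2 : H69.cj y V = H69.cj (a * g) V := by
    by_contra hne
    have : v * ⁅y, v⁆ ∈ H69.cj y V ⊓ H69.cj (a * g) V :=
      ⟨e1 ▸ conj_mem_cj.2 hv, by rw [cj_mul, ← e]; exact conj_mem_cj.2 h1⟩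
    rw [hT.ti.inf_eq_bot hne, mem_bot, mul_eq_one_iff_eq_inv] at this
    exact h2 (h.r.eq_one (by rw [← inv_inv ⁅y, v⁆, ← this]; exact V.inv_mem hv) h1)
  have e3 : H69.cj (a⁻¹ * y) V = H69.cj g V := by rw [cj_mul, e2, cj_mul, cj_inv_cj]
  refine ⟨?_, a, haP, e3⟩
  have hn : g⁻¹ * (a⁻¹ * y) ∈ normalizer (V : Set G) := by
    rw [← cj_eq_self_iff, cj_mul, e3, cj_inv_cj]
  have e4 : H69.cj (a⁻¹ * y) P = H69.cj g P := by
    have := cj_eq_of_mem_normalizer (hT.norm hn)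
    rw [cj_mul] at this
    rw [← cj_cj_inv g (H69.cj (a⁻¹ * y) P), this]
  have hyy : H69.cj (y * y) V = V := cj_eq_of_mem_normalizer
    (centralizer_le_normalizer _ fun u hu => (hT.cen _ (h.r.le (hT'.sq y hy)) u hu).symm)
  have haV : H69.cj a V = V := cj_eq_of_mem_normalizer
    (centralizer_le_normalizer _ fun u hu => (hT.cen _ haP u hu).symm)
  rw [← e4, le_cj_iff, mul_inv_rev, inv_inv, cj_mul, haV]
  conv_lhs => rw [← hyy]
  rw [cj_mul, cj_inv_cj, e2, cj_mul]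
  exact cj_le_of_mem haP h.r.le

theorem exists_caseA (h : TP V P A (H69.cj g V)) :
    ∃ y ∈ H69.cj g P, ∃ v ∈ V, ⁅y, v⁆ ∈ H69.cj g V ∧ ⁅y, v⁆ ≠ 1 := by
  have hT := h.l.tc
  have hT' := hT.cj g
  set B := H69.cj g V with hB
  set P' := H69.cj g P with hP'
  by_contra hc
  push Not at hc
  have hVB : ∀ v ∈ V, ∀ b ∈ B, v * b = b * v := fun v hv b hb => (hT.cen b (h.r.le hb) v hv).symm
  have h1 : ∀ v ∈ V, v ∈ P' → v = 1 := fun v hv hv' => h.r.eq_one hv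
    (hT'.center v hv' fun y hy => comm_iff_el.1 (hc y hy v hv (hT'.comm y hy v hv')))
  have h2 : ∀ y ∈ P', ∀ v ∈ V, v ≠ 1 → ⁅v, y⁆ ∈ B → ∀ u ∈ V, y * u = u * y := by
    intro y hy v hv hv1 hm u hu
    have e := comm_iff_el.1 (hc y hy v hv (by rw [← commutatorElement_inv]; exact B.inv_mem hm))
    have hn := hT.ti.of_comm (mem_top y) hv hv1 e
    refine (comm_iff_el.1 (h1 _ ?_ (hT'.comm_mem (hVB u hu) hy))).symm
    rw [← commutatorElement_inv]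
    exact V.inv_mem (V.mul_mem (conj_mem_of_mem_normalizer hn hu) (V.inv_mem hu))
  have h3 : ∀ d ∈ P, d ∈ P' → d ∈ B := fun d hd hd' => by
    obtain ⟨v, hv, b, hb, rfl⟩ := h.mem_of_cent hd fun x hx hxB =>
      comm_iff_el.1 (h1 _ (hT.comm x hx d hd) (hT'.comm_mem hxB hd'))
    have : v ∈ P' := by simpa using P'.mul_mem hd' (P'.inv_mem (hT'.VP hb))
    rw [h1 v hv this, one_mul]; exact hb
  have h4 : ∀ x ∈ P, (∀ c ∈ B, x * c = c * x) → ∀ s ∈ P', (∀ u ∈ V, s * u = u * s) → ⁅x, s⁆ ∈ B :=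
    fun x hx hxB s hs hsV => h3 _
      (by rw [← commutatorElement_inv]; exact P.inv_mem (hT.comm_mem hsV hx)) (hT'.comm_mem hxB hs)
  obtain ⟨v, hv, hv1⟩ : ∃ v ∈ V, v ≠ 1 := by
    obtain ⟨b, hb, hb1⟩ := h.r.exists_ne_one
    exact ⟨g⁻¹ * b * g, mem_cj.1 hb, fun e => hb1 (by
      calc b = g * (g⁻¹ * b * g) * g⁻¹ := by group
        _ = 1 := by rw [e]; group)⟩
  have hs : ∀ y ∈ P', ⁅v, y⁆ ∈ B → v * y = y * v := fun y hy hm => (h2 y hy v hv hv1 hm v hv).symm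
  have h5 : ∀ y ∈ P', ∀ u ∈ V, ⁅v, y⁆ * u = u * ⁅v, y⁆ := fun y hy =>
    h2 _ (hT'.comm_mem (hVB v hv) hy) v hv hv1 (by
      rw [comm_iff_el.2 (small_inv hT' (hT.inv v hv) (hVB v hv) hs hy).1]; exact B.one_mem)
  have h6 : ∀ x ∈ P, (∀ c ∈ B, x * c = c * x) → ∀ y ∈ P', ∀ u ∈ V, ⁅x, y⁆ * u = u * ⁅x, y⁆ := by
    intro x hx hxB y hy
    have hcP := hT'.comm_mem (hVB v hv) hy
    have heP := hT'.comm_mem hxB hy
    refine h2 _ heP v hv hv1 ?_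
    have e1 := h4 x hx hxB _ hcP (h5 y hy)
    have e2 : ⁅v, ⁅x, y⁆⁆ = ⁅x, ⁅v, y⁆⁆ * ⁅⁅v, y⁆, ⁅x, y⁆⁆ := by
      have e3 : x * ⁅v, y⁆ * x⁻¹ = ⁅v, x * y * x⁻¹⁆ := by
        rw [← conj_commutatorElement', hT.cen x hx v hv, mul_inv_cancel_right]
      rw [commutatorElement_def x ⁅v, y⁆, e3]
      simp only [commutatorElement_def]; group
    rw [e2]
    exact B.mul_mem e1 (hT'.comm _ hcP _ heP)
  have h7 : ∀ x ∈ P, (∀ c ∈ B, x * c = c * x) → x * x = 1 := by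
    intro x hx hxB
    refine h1 _ (hT.sq x hx) (hT'.inner _ (fun c hc => ?_) fun y hy => ?_)
    · rw [mul_assoc, hxB c hc, ← mul_assoc, hxB c hc, mul_assoc]
    · have heP := hT'.comm_mem hxB hy
      have e : ⁅x * x, y⁆ = ⁅x, ⁅x, y⁆⁆ * (⁅x, y⁆ * ⁅x, y⁆) := by
        simp only [commutatorElement_def]; group
      rw [e]
      exact B.mul_mem (h4 x hx hxB _ heP (h6 x hx hxB y hy)) (hT'.sq _ heP)
  have h8 : ∀ x ∈ P, (∀ c ∈ B, x * c = c * x) → ∃ v ∈ V, ∃ b ∈ B, x = v * b := by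
    intro x hx hxB
    refine h.mem_of_cent hx fun y hy hyB => ?_
    have e := inv_eq_of_mul_eq_one_right (h7 _ (P.mul_mem hx hy) fun c hc => by
      rw [mul_assoc, hyB c hc, ← mul_assoc, hxB c hc, mul_assoc])
    rwa [mul_inv_rev, inv_eq_of_mul_eq_one_right (h7 x hx hxB),
      inv_eq_of_mul_eq_one_right (h7 y hy hyB)] at e
  haveI : Finite B := finite_cj g V
  refine hv1 (h1 v hv ((h.cj g).small (fun x hx hxB => ?_) (hT.inv v hv) (hVB v hv) hs))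
  obtain ⟨x, hx', rfl⟩ := mem_cj'.1 hx
  obtain ⟨u, hu, b, hb, rfl⟩ := h8 x hx' fun c hc => by
    have := hxB _ (conj_mem_cj.2 hc)
    rw [conj_mul, conj_mul] at this
    simpa using this
  exact ⟨_, conj_mem_cj.2 hu, _, conj_mem_cj.2 hb, (conj_mul).symm⟩

/-- The fundamental lemma, part (a). -/
theorem le_cj (h : TP V P A (H69.cj g V)) : V ≤ H69.cj g P ∧
    ∃ y ∈ H69.cj g P, ∃ a ∈ P, H69.cj (a⁻¹ * y) V = H69.cj g V := by
  obtain ⟨y, hy, v, hv, h1, h2⟩ := h.exists_caseA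
  obtain ⟨h3, h4⟩ := h.caseA hy hv h1 h2
  exact ⟨h3, y, hy, h4⟩

/-- The normalizer of `V` is transitive on `V^#`. -/
theorem trans (h : TP V P A (H69.cj g V)) {u v : G} (hu : u ∈ V) (hu1 : u ≠ 1) (hv : v ∈ V)
    (hv1 : v ≠ 1) : ∃ m ∈ normalizer (V : Set G), m * u * m⁻¹ = v := by
  have hT := h.l.tc
  have hT' := hT.cj g
  obtain ⟨h1, y, hy, a, ha, e⟩ := h.le_cj
  obtain ⟨b, hb, hb1⟩ := h.r.exists_ne_one
  have key : ∀ u ∈ V, u ≠ 1 → ∃ k : G, k * u * k⁻¹ = b := by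
    intro u hu hu1
    have hne : ⁅y, u⁆ ≠ 1 := fun e1 => by
      have hn := hT.ti.of_comm (mem_top y) hu hu1 (comm_iff_el.1 e1)
      have haN : a⁻¹ ∈ normalizer (V : Set G) :=
        centralizer_le_normalizer _ fun w hw => (hT.cen _ (P.inv_mem ha) w hw).symm
      exact h.r.ne (by rw [← e, cj_eq_of_mem_normalizer (mul_mem haN hn)])
    have hD : TD (H69.cj g V) (H69.cj g P) V := ⟨hT', ⟨g⁻¹, (cj_inv_cj _ _).symm⟩, h1, h.r.ne.symm⟩
    haveI := finite_cj g V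
    have hc := hT'.comm y hy u (h1 hu)
    obtain ⟨w, hw, ew⟩ := hD.onto hy (fun e => hne (comm_iff_el.2 (e u hu))) (mul_mem hb (inv_mem hc))
    have c1 : IsConj u (u * ⁅y, u⁆) := isConj_iff.2 ⟨y, by
      rw [← hT.cen _ (h.r.le hc) u hu, commutatorElement_def]; group⟩
    have c2 : ∀ x ∈ V, ∀ c ∈ H69.cj g V, c ≠ 1 → IsConj c (x * c) := fun x hx c hc hc1 =>
      let ⟨a, _, e⟩ := h.exists_conj hc hc1 hx; isConj_iff.2 ⟨a, e⟩
    have c3 : IsConj (w * ⁅y, u⁆) (w * b) := isConj_iff.2 ⟨y, by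
      calc y * (w * ⁅y, u⁆) * y⁻¹ = ⁅y, w⁆ * w * (y * ⁅y, u⁆) * y⁻¹ := by
            rw [commutatorElement_def y w]; group
        _ = b * ⁅y, u⁆⁻¹ * (w * ⁅y, u⁆) := by rw [ew, hT'.cen y hy _ hc]; group
        _ = w * b := by rw [← hT.cen _ (h.r.le hc) w hw, ← hT.cen _ (h.r.le hb) w hw]; group⟩
    exact isConj_iff.1 ((((c1.trans (c2 u hu _ hc hne).symm).trans (c2 w hw _ hc hne)).trans c3).trans
      (c2 w hw b hb hb1).symm)
  obtain ⟨k, hk⟩ := key u hu hu1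
  obtain ⟨l, hl⟩ := key v hv hv1
  have e1 : l⁻¹ * k * u * (l⁻¹ * k)⁻¹ = v := by
    calc l⁻¹ * k * u * (l⁻¹ * k)⁻¹ = l⁻¹ * (k * u * k⁻¹) * l := by group
      _ = v := by rw [hk, ← hl]; group
  exact ⟨_, hT.ti _ (mem_top _) u hu hu1 (e1 ▸ hv), e1⟩

end TP

end Cfsg.Agent.H59
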